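import Mathlib

/-! Similarity classes of nilpotent matrices and partitions. -/

set_option autoImplicit false

namespace CfsgLib.Unipotent.NilpotentClasses

open Matrix Polynomial

variable {K : Type*} [Field K]

/-- The block sum of nilpotent Jordan blocks. -/
def bd {t : ℕ} (K : Type*) [Field K] (d : Fin t → ℕ) : Matrix ((k : Fin t) × Fin (d k)) ((k : Fin t) × Fin (d k)) K :=
  Matrix.of fun x y => if x.1 = y.1 ∧ (x.2 : ℕ) = y.2 + 1 then 1 else 0

theorem bd_pow {t : ℕ} (d : Fin t → ℕ) (j : ℕ) (x y : (k : Fin t) × Fin (d k)) :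
    (bd K d ^ j) x y = if x.1 = y.1 ∧ (x.2 : ℕ) = y.2 + j then 1 else 0 := by
  classical
  induction j generalizing x with
  | zero =>
    rw [pow_zero, Matrix.one_apply]
    refine if_congr ?_ rfl rfl
    constructor
    · rintro rfl; simp
    · rintro ⟨h1, h2⟩
      obtain ⟨a, b⟩ := x; obtain ⟨a', b'⟩ := y
      simp only at h1 h2
      subst h1
      rw [show b = b' from Fin.ext (by omega)]
  | succ j ih =>
    rw [pow_succ', Matrix.mul_apply]
    by_cases h : x.1 = y.1 ∧ (x.2 : ℕ) = y.2 + (j + 1)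
    · obtain ⟨h1, h2⟩ := h
      rw [if_pos ⟨h1, h2⟩]
      obtain ⟨a, b⟩ := x; obtain ⟨a', b'⟩ := y
      simp only at h1 h2
      subst h1
      rw [Finset.sum_eq_single (⟨a, ⟨b' + j, by omega⟩⟩ : (k : Fin t) × Fin (d k))]
      · rw [ih, if_pos ⟨rfl, rfl⟩, mul_one]
        rw [bd, Matrix.of_apply, if_pos]
        exact ⟨rfl, by simp only; omega⟩
      · intro z _ hz
        rw [ih]
        split_ifs with h3
        · exfalso
          apply hz
          obtain ⟨c, e⟩ := z
          obtain ⟨h3, h4⟩ := h3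
          simp only at h3 h4
          subst h3
          rw [show e = ⟨b' + j, by omega⟩ from Fin.ext h4]
        · rw [mul_zero]
      · simp
    · rw [if_neg h]
      refine Finset.sum_eq_zero fun z _ => ?_
      rw [ih]
      simp only [bd, Matrix.of_apply]
      split_ifs with h1 h2
      · exact absurd ⟨h1.1.trans h2.1, by omega⟩ h
      all_goals simp

theorem rank_bd_pow {t : ℕ} (d : Fin t → ℕ) (j : ℕ) : (bd K d ^ j).rank = ∑ k, (d k - j) := by
  classical
  set A := bd K d ^ j with hA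
  have hAt : A * Aᵀ = Matrix.diagonal (fun x : (k : Fin t) × Fin (d k) => if j ≤ (x.2 : ℕ) then (1 : K) else 0) := by
    ext x z
    rw [Matrix.mul_apply, Matrix.diagonal_apply]
    simp only [Matrix.transpose_apply, hA, bd_pow]
    by_cases hj : x = z ∧ j ≤ (x.2 : ℕ)
    · obtain ⟨rfl, hj⟩ := hj
      rw [if_pos rfl, if_pos hj, Finset.sum_eq_single (⟨x.1, ⟨(x.2 : ℕ) - j, by omega⟩⟩ : (k : Fin t) × Fin (d k))]
      · rw [if_pos ⟨rfl, by simp only; omega⟩, mul_one]
      · intro y _ hy
        split_ifs with h1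
        · exfalso
          apply hy
          obtain ⟨a, b⟩ := x; obtain ⟨c, e⟩ := y
          simp only at h1
          obtain ⟨rfl, h1⟩ := h1
          rw [show e = ⟨(b : ℕ) - j, by omega⟩ from Fin.ext (by simp only; omega)]
        all_goals simp
      · simp
    · rw [Finset.sum_eq_zero]
      · split_ifs with h1 h2 <;> first | rfl | exact absurd ⟨h1, h2⟩ hj
      · intro y _
        split_ifs with h1 h2
        · exfalso
          apply hj
          obtain ⟨a, b⟩ := x; obtain ⟨c, e⟩ := z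
          simp only at h1 h2 ⊢
          obtain ⟨rfl, h1⟩ := h1
          obtain ⟨rfl, h2⟩ := h2
          exact ⟨by rw [show b = e from Fin.ext (by omega)], by omega⟩
        all_goals simp
  have hAA : (A * Aᵀ) * A = A := by
    ext x y
    rw [hAt, Matrix.diagonal_mul]
    split_ifs with h
    · rw [one_mul]
    · rw [zero_mul, hA, bd_pow, if_neg (fun h' => h (by omega))]
  have h1 : A.rank = (A * Aᵀ).rank := by
    refine le_antisymm ?_ (Matrix.rank_mul_le_left _ _)
    conv_lhs => rw [← hAA]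
    exact Matrix.rank_mul_le_left _ _
  rw [h1, hAt, Matrix.rank_diagonal]
  rw [Fintype.card_subtype]
  have hcount : ∀ (D : ℕ), (Finset.univ.filter fun r : Fin D => j ≤ (r : ℕ)).card = D - j := by
    intro D
    rw [← Fintype.card_subtype, ← Fintype.card_fin (D - j)]
    exact Fintype.card_congr
      { toFun := fun r => ⟨(r.1 : ℕ) - j, by have := r.2; omega⟩
        invFun := fun s => ⟨⟨(s : ℕ) + j, by omega⟩, by simp⟩
        left_inv := fun r => Subtype.ext (Fin.ext (by have := r.2; simp only; omega))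
        right_inv := fun s => Fin.ext (by simp) }
  rw [show (Finset.univ.filter fun x : (k : Fin t) × Fin (d k) => (if j ≤ (x.2 : ℕ) then (1 : K) else 0) ≠ 0)
    = Finset.univ.sigma (fun k => Finset.univ.filter fun r : Fin (d k) => j ≤ (r : ℕ)) from ?_, Finset.card_sigma]
  · simp only [hcount]
  · ext x; simp

/-- The rank invariant determines the positive parts. -/
theorem count_eq (s : Multiset ℕ) (v : ℕ) (hv : 0 < v) :
    (s.map (fun d => d - (v - 1))).sum + (s.map (fun d => d - (v + 1))).sum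
      = 2 * (s.map (fun d => d - v)).sum + s.count v := by
  induction s using Multiset.induction with
  | empty => simp
  | cons a s ih =>
    simp only [Multiset.map_cons, Multiset.sum_cons, Multiset.count_cons]
    split_ifs with h
    · subst h; omega
    · omega

/-- Transport of a block sum along a size-preserving matching of the nonempty blocks. -/
theorem exists_reindex {t s : ℕ} (d : Fin t → ℕ) (k : Fin s → ℕ)
    (h : ∀ v, 0 < v → Nat.card {i // d i = v} = Nat.card {i // k i = v}) (hsum : ∑ i, d i = ∑ i, k i) :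
    ∃ σ : ((i : Fin t) × Fin (d i)) ≃ ((i : Fin s) × Fin (k i)), ∀ x y, bd K k (σ x) (σ y) = bd K d x y := by
  classical
  have hE : ∀ v : ℕ, 0 < v → Nonempty ({i // d i = v} ≃ {i // k i = v}) := fun v hv =>
    ⟨Fintype.equivOfCardEq (by rw [← Nat.card_eq_fintype_card, ← Nat.card_eq_fintype_card, h v hv])⟩
  let E := fun (v : ℕ) (hv : 0 < v) => (hE v hv).some
  let f : ((i : Fin t) × Fin (d i)) → ((i : Fin s) × Fin (k i)) := fun x =>
    ⟨(E (d x.1) (Fin.pos x.2) ⟨x.1, rfl⟩).1, x.2.cast (E (d x.1) (Fin.pos x.2) ⟨x.1, rfl⟩).2.symm⟩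
  have hkey : ∀ x y, (f x).1 = (f y).1 ↔ x.1 = y.1 := by
    intro x y
    constructor
    · intro he
      have hx := (E (d x.1) (Fin.pos x.2) ⟨x.1, rfl⟩).2
      have hy := (E (d y.1) (Fin.pos y.2) ⟨y.1, rfl⟩).2
      have hxy : d x.1 = d y.1 := by
        rw [← hx, ← hy]; exact congrArg k he
      have h2 : ∀ (v : ℕ) (hv : 0 < v) (hxv : d x.1 = v), (E (d x.1) (Fin.pos x.2) ⟨x.1, rfl⟩).1 = (E v hv ⟨x.1, hxv⟩).1 := by
        intro v hv hxv; subst hxv; rfl
      simp only [f] at he
      rw [h2 (d y.1) (Fin.pos y.2) hxy] at he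
      exact congrArg Subtype.val ((E (d y.1) (Fin.pos y.2)).injective (Subtype.ext he))
    · intro he
      obtain ⟨a, b⟩ := x; obtain ⟨a', b'⟩ := y
      simp only at he
      subst he
      rfl
  have hinj : Function.Injective f := by
    intro x y he
    have h1 := (hkey x y).1 (congrArg Sigma.fst he)
    have h2 : (x.2 : ℕ) = y.2 := by
      simpa [f] using congrArg (fun z : (i : Fin s) × Fin (k i) => (z.2 : ℕ)) he
    obtain ⟨a, b⟩ := x; obtain ⟨a', b'⟩ := y
    simp only at h1 h2
    subst h1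
    rw [show b = b' from Fin.ext h2]
  have hbij : Function.Bijective f :=
    (Fintype.bijective_iff_injective_and_card f).2 ⟨hinj, by simp [Fintype.card_sigma, hsum]⟩
  refine ⟨Equiv.ofBijective f hbij, fun x y => ?_⟩
  simp only [bd, Matrix.of_apply, Equiv.ofBijective_apply]
  exact if_congr (and_congr (hkey x y) Iff.rfl) rfl rfl

theorem sum_parts_get {n : ℕ} (μ : Nat.Partition n) : ∑ k, μ.parts.toList.get k = n := by
  rw [← List.sum_ofFn, List.ofFn_get, Multiset.sum_toList, μ.parts_sum]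

/-- Identification of the block index set with `Fin n`. -/
noncomputable def idx {n : ℕ} (μ : Nat.Partition n) :
    ((k : Fin μ.parts.toList.length) × Fin (μ.parts.toList.get k)) ≃ Fin n :=
  Fintype.equivFinOfCardEq (by simp only [Fintype.card_sigma, Fintype.card_fin]; exact sum_parts_get μ)

/-- The standard nilpotent matrix attached to a partition. -/
noncomputable def std (K : Type*) [Field K] {n : ℕ} (μ : Nat.Partition n) : Matrix (Fin n) (Fin n) K :=
  Matrix.reindexAlgEquiv K K (idx μ) (bd K μ.parts.toList.get)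

theorem rank_std_pow {n : ℕ} (μ : Nat.Partition n) (j : ℕ) :
    (std K μ ^ j).rank = (μ.parts.map (fun d => d - j)).sum := by
  rw [std, ← map_pow, Matrix.reindexAlgEquiv_apply, Matrix.rank_reindex, rank_bd_pow, ← List.sum_ofFn]
  have : List.ofFn (fun k => μ.parts.toList.get k - j) = μ.parts.toList.map (fun d => d - j) := by
    conv_rhs => rw [← List.ofFn_get μ.parts.toList, List.map_ofFn]
    rfl
  rw [this, ← Multiset.sum_coe, ← Multiset.map_coe, Multiset.coe_toList]

theorem std_pow_eq_zero_iff {n : ℕ} (μ : Nat.Partition n) (j : ℕ) :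
    std K μ ^ j = 0 ↔ ∀ a ∈ μ.parts, a ≤ j := by
  constructor
  · intro h a ha
    have h1 := rank_std_pow (K := K) μ j
    rw [h, Matrix.rank_zero] at h1
    have := Multiset.sum_eq_zero_iff.1 h1.symm (a - j) (Multiset.mem_map_of_mem _ ha)
    omega
  · intro h
    have h0 : (std K μ ^ j).rank = 0 := by
      rw [rank_std_pow]
      exact Multiset.sum_eq_zero_iff.2 fun b hb => by
        obtain ⟨a, ha, rfl⟩ := Multiset.mem_map.1 hb
        have := h a ha
        omega
    have h1 : (std K μ ^ j).mulVecLin = 0 := LinearMap.range_eq_bot.1 (Submodule.finrank_eq_zero.1 h0)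
    apply Matrix.toLin'.injective
    rw [map_zero]
    exact h1

theorem std_nilpotent {n : ℕ} (μ : Nat.Partition n) : IsNilpotent (std K μ) :=
  ⟨n, (std_pow_eq_zero_iff μ n).2 fun _ ha => Nat.Partition.le_of_mem_parts ha⟩

theorem rank_pow_eq_of_similar {n : ℕ} (A B : Matrix (Fin n) (Fin n) K) (P : GL (Fin n) K)
    (h : A * (P : Matrix (Fin n) (Fin n) K) = (P : Matrix (Fin n) (Fin n) K) * B) (j : ℕ) :
    (A ^ j).rank = (B ^ j).rank := by
  have h' : A ^ j * (P : Matrix (Fin n) (Fin n) K) = (P : Matrix (Fin n) (Fin n) K) * B ^ j := by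
    induction j with
    | zero => simp
    | succ j ih => rw [pow_succ, mul_assoc, h, ← mul_assoc, ih, mul_assoc, ← pow_succ]
  have hP := (Matrix.isUnit_iff_isUnit_det _).1 P.isUnit
  rw [← Matrix.rank_mul_eq_left_of_isUnit_det _ (A ^ j) hP, h', Matrix.rank_mul_eq_right_of_isUnit_det _ _ hP]

theorem std_injective {n : ℕ} (μ ν : Nat.Partition n) (P : GL (Fin n) K)
    (h : std K μ * (P : Matrix (Fin n) (Fin n) K) = (P : Matrix (Fin n) (Fin n) K) * std K ν) : μ = ν := by
  have hr : ∀ j, (μ.parts.map (fun d => d - j)).sum = (ν.parts.map (fun d => d - j)).sum := fun j => by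
    rw [← rank_std_pow (K := K), ← rank_std_pow (K := K), rank_pow_eq_of_similar _ _ P h j]
  apply Nat.Partition.ext
  ext v
  rcases Nat.eq_zero_or_pos v with rfl | hv
  · rw [Multiset.count_eq_zero.2 (fun h => lt_irrefl 0 (μ.parts_pos h)),
      Multiset.count_eq_zero.2 (fun h => lt_irrefl 0 (ν.parts_pos h))]
  · have h1 := count_eq μ.parts v hv
    have h2 := count_eq ν.parts v hv
    rw [hr (v - 1), hr (v + 1), hr v] at h1
    omega

/-- Coefficient map onto a truncated polynomial module. -/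
noncomputable def toQuot (K : Type*) [Field K] (k : ℕ) : (Fin k → K) →ₗ[K] K[X] ⧸ (K[X] ∙ (X : K[X]) ^ k) :=
  ((Submodule.mkQ (K[X] ∙ (X : K[X]) ^ k)).restrictScalars K).comp (∑ c : Fin k, (LinearMap.proj c).smulRight ((X : K[X]) ^ (c : ℕ)))

theorem toQuot_apply (k : ℕ) (v : Fin k → K) :
    toQuot K k v = Submodule.Quotient.mk (∑ c : Fin k, v c • (X : K[X]) ^ (c : ℕ)) := by
  simp only [toQuot, LinearMap.comp_apply, LinearMap.coe_restrictScalars, Submodule.mkQ_apply]
  congr 1
  simp

theorem quot_eq_iff (k : ℕ) (f g : K[X]) :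
    (Submodule.Quotient.mk f : K[X] ⧸ (K[X] ∙ (X : K[X]) ^ k)) = Submodule.Quotient.mk g ↔ ∀ d < k, f.coeff d = g.coeff d := by
  rw [Submodule.Quotient.eq, Submodule.mem_span_singleton]
  have : (∃ a : K[X], a • (X : K[X]) ^ k = f - g) ↔ (X : K[X]) ^ k ∣ f - g :=
    ⟨fun ⟨a, ha⟩ => ⟨a, by rw [← ha, smul_eq_mul, mul_comm]⟩, fun ⟨a, ha⟩ => ⟨a, by rw [ha, smul_eq_mul, mul_comm]⟩⟩
  rw [this, Polynomial.X_pow_dvd_iff]
  simp [sub_eq_zero]

theorem coeff_trunc (k : ℕ) (v : Fin k → K) (d : ℕ) (hd : d < k) :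
    (∑ c : Fin k, v c • (X : K[X]) ^ (c : ℕ)).coeff d = v ⟨d, hd⟩ := by
  rw [Polynomial.finset_sum_coeff, Finset.sum_eq_single (⟨d, hd⟩ : Fin k)]
  · simp
  · intro c _ hc
    rw [Polynomial.coeff_smul, Polynomial.coeff_X_pow, if_neg (fun h => hc (Fin.ext h.symm)), smul_zero]
  · simp

theorem toQuot_bijective (k : ℕ) : Function.Bijective (toQuot K k) := by
  constructor
  · intro v w h
    rw [toQuot_apply, toQuot_apply, quot_eq_iff] at h
    funext c
    have := h c c.2
    rwa [coeff_trunc k v c c.2, coeff_trunc k w c c.2] at this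
  · intro q
    obtain ⟨f, rfl⟩ := Submodule.Quotient.mk_surjective _ q
    refine ⟨fun c => f.coeff c, ?_⟩
    rw [toQuot_apply, quot_eq_iff]
    intro d hd
    rw [coeff_trunc k _ d hd]

theorem exists_std {n : ℕ} (N : Matrix (Fin n) (Fin n) K) (hN : IsNilpotent N) :
    ∃ (μ : Nat.Partition n) (P : GL (Fin n) K),
      N * (P : Matrix (Fin n) (Fin n) K) = (P : Matrix (Fin n) (Fin n) K) * std K μ := by
  classical
  let a : Module.End K (Fin n → K) := Matrix.toLin' N
  obtain ⟨e, he⟩ := hN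
  have ha : a ^ e = 0 := by rw [← Matrix.toLin'_pow, he, map_zero]
  haveI : Module.Finite K (Module.AEval' a) := Module.Finite.equiv (Module.AEval'.of a)
  haveI : Module.Finite K[X] (Module.AEval' a) := Module.Finite.of_restrictScalars_finite K K[X] _
  have htor : Module.IsTorsion' (Module.AEval' a) (Submonoid.powers (X : K[X])) := by
    intro x
    obtain ⟨v, rfl⟩ := (Module.AEval'.of a).surjective x
    refine ⟨⟨X ^ e, e, rfl⟩, ?_⟩
    show (X : K[X]) ^ e • Module.AEval'.of a v = 0
    rw [Module.AEval.X_pow_smul_of, ha]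
    simp
  obtain ⟨s, k, ⟨L⟩⟩ := Module.torsion_by_prime_power_decomposition Polynomial.irreducible_X htor
  let L' : Module.AEval' a ≃ₗ[K[X]] ((i : Fin s) → K[X] ⧸ (K[X] ∙ (X : K[X]) ^ k i)) :=
    L ≪≫ₗ DirectSum.linearEquivFunOnFintype K[X] (Fin s) _
  let Q : ((i : Fin s) → Fin (k i) → K) ≃ₗ[K] ((i : Fin s) → K[X] ⧸ (K[X] ∙ (X : K[X]) ^ k i)) :=
    LinearEquiv.piCongrRight fun i => LinearEquiv.ofBijective (toQuot K (k i)) (toQuot_bijective (k i))
  let Φ : (((i : Fin s) × Fin (k i)) → K) ≃ₗ[K] (Fin n → K) :=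
    (LinearEquiv.piCurry K (fun (i : Fin s) (_ : Fin (k i)) => K)) ≪≫ₗ Q ≪≫ₗ (L'.restrictScalars K).symm ≪≫ₗ (Module.AEval'.of a).symm
  have hdim : ∑ i, k i = n := by
    have := Φ.finrank_eq
    simpa [Fintype.card_sigma] using this
  have hdim' : ((Finset.univ : Finset (Fin s)).val.map k).sum = n := hdim
  let μ : Nat.Partition n := Nat.Partition.ofSums n ((Finset.univ : Finset (Fin s)).val.map k) hdim'
  obtain ⟨σ, hσ⟩ := exists_reindex (K := K) μ.parts.toList.get k (by
    intro v hv
    rw [Nat.card_eq_fintype_card, Nat.card_eq_fintype_card, Fintype.card_subtype, Fintype.card_subtype]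
    have h1 : ((Finset.univ : Finset (Fin μ.parts.toList.length)).val.map μ.parts.toList.get) = μ.parts := by
      rw [Fin.univ_val_map, List.ofFn_get, Multiset.coe_toList]
    have h2 : μ.parts.count v = ((Finset.univ : Finset (Fin s)).val.map k).count v := by
      show (((Finset.univ : Finset (Fin s)).val.map k).filter (· ≠ 0)).count v = _
      rw [Multiset.count_filter, if_pos (by omega)]
    rw [← h1, Multiset.count_map, Multiset.count_map] at h2
    simp only [Finset.card_def, Finset.filter_val]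
    rw [Multiset.filter_congr (fun (x : Fin μ.parts.toList.length) _ => eq_comm (a := μ.parts.toList.get x) (b := v)),
      Multiset.filter_congr (fun (x : Fin s) _ => eq_comm (a := k x) (b := v))]
    exact h2) (by rw [hdim, sum_parts_get])
  let ρ : ((i : Fin s) × Fin (k i)) ≃ Fin n := σ.symm.trans (idx μ)
  let Ψ : (Fin n → K) ≃ₗ[K] (Fin n → K) := (LinearEquiv.funCongrLeft K K ρ) ≪≫ₗ Φ
  have hΦ : ∀ w, a (Φ w) = Φ ((bd K k).mulVec w) := by
    intro w
    apply (Module.AEval'.of a).injective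
    rw [← Module.AEval'.X_smul_of]
    simp only [Φ, LinearEquiv.trans_apply, LinearEquiv.apply_symm_apply]
    apply L'.injective
    rw [map_smul]
    show (X : K[X]) • L' ((L'.restrictScalars K).symm (Q _)) = L' ((L'.restrictScalars K).symm (Q _))
    rw [← LinearEquiv.restrictScalars_apply K L', ← LinearEquiv.restrictScalars_apply K L',
      LinearEquiv.apply_symm_apply, LinearEquiv.apply_symm_apply]
    funext i
    show (X : K[X]) • toQuot K (k i) (fun c => w ⟨i, c⟩) = toQuot K (k i) (fun c => (bd K k).mulVec w ⟨i, c⟩)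
    rw [toQuot_apply, toQuot_apply, ← Submodule.Quotient.mk_smul, quot_eq_iff]
    intro d hd
    rw [coeff_trunc (k i) _ d hd, smul_eq_mul]
    rw [Matrix.mulVec, dotProduct]
    simp only [bd, Matrix.of_apply, ite_mul, one_mul, zero_mul]
    cases d with
    | zero =>
      rw [Polynomial.coeff_X_mul_zero]
      exact (Finset.sum_eq_zero fun z _ => if_neg (by simp)).symm
    | succ d =>
      rw [Polynomial.coeff_X_mul, coeff_trunc (k i) _ d (by omega),
        Finset.sum_eq_single (⟨i, ⟨d, by omega⟩⟩ : (i : Fin s) × Fin (k i))]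
      · rw [if_pos ⟨rfl, rfl⟩]
      · intro z _ hz
        rw [if_neg]
        rintro ⟨h1, h2⟩
        apply hz
        obtain ⟨z1, z2⟩ := z
        simp only at h1 h2
        subst h1
        rw [show z2 = ⟨d, by omega⟩ from Fin.ext (by simp only; omega)]
      · simp
  have hstd : ∀ v : Fin n → K, (bd K k).mulVec (v ∘ ρ) = ((std K μ).mulVec v) ∘ ρ := by
    intro v
    funext x
    obtain ⟨x, rfl⟩ := σ.surjective x
    simp only [Matrix.mulVec, dotProduct, Function.comp_apply, std, Matrix.reindexAlgEquiv_apply, Matrix.reindex_apply,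
      Matrix.submatrix_apply, ρ, Equiv.trans_apply, Equiv.symm_apply_apply]
    rw [← σ.sum_comp, ← (idx μ).sum_comp]
    simp only [Equiv.symm_apply_apply, hσ]
  let M := LinearMap.toMatrix' (Ψ : (Fin n → K) →ₗ[K] (Fin n → K))
  have hM : IsUnit M := by
    rw [Matrix.isUnit_iff_isUnit_det, LinearMap.det_toMatrix']
    exact LinearEquiv.isUnit_det' Ψ
  refine ⟨μ, hM.unit, ?_⟩
  rw [IsUnit.unit_spec]
  apply Matrix.toLin'.injective
  rw [Matrix.toLin'_mul, Matrix.toLin'_mul, Matrix.toLin'_toMatrix']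
  refine LinearMap.ext fun v => ?_
  show a (Φ (v ∘ ρ)) = Φ (((std K μ).mulVec v) ∘ ρ)
  rw [hΦ, hstd]

end CfsgLib.Unipotent.NilpotentClasses

namespace CfsgLib.Unipotent.NilpotentClasses

open Matrix

variable {K : Type*} [Field K]

/-- Classes of elements `g` with `g - 1` nilpotent and killed by a family of exponents correspond to partitions. -/
theorem exists_class_equiv {n : ℕ} (S : GL (Fin n) K → Prop) (T : Nat.Partition n → Prop)
    (hS : ∀ g, S g → IsNilpotent ((g : Matrix (Fin n) (Fin n) K) - 1))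
    (hST : ∀ (μ : Nat.Partition n) (g : GL (Fin n) K), ∀ P : GL (Fin n) K,
      ((g : Matrix (Fin n) (Fin n) K) - 1) * (P : Matrix (Fin n) (Fin n) K) = (P : Matrix (Fin n) (Fin n) K) * std K μ →
      (S g ↔ T μ)) :
    Nonempty ({μ : Nat.Partition n // T μ} ≃ {C : ConjClasses (GL (Fin n) K) // ∃ g, ConjClasses.mk g = C ∧ S g}) := by
  classical
  have hu : ∀ μ : Nat.Partition n, IsUnit (1 + std K μ) := fun μ => (std_nilpotent μ).isUnit_one_add
  let g₀ : Nat.Partition n → GL (Fin n) K := fun μ => (hu μ).unit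
  have hg₀ : ∀ μ, ((g₀ μ : GL (Fin n) K) : Matrix (Fin n) (Fin n) K) = 1 + std K μ := fun μ => IsUnit.unit_spec _
  let f : {μ : Nat.Partition n // T μ} → {C : ConjClasses (GL (Fin n) K) // ∃ g, ConjClasses.mk g = C ∧ S g} :=
    fun μ => ⟨ConjClasses.mk (g₀ μ.1), g₀ μ.1, rfl, (hST μ.1 (g₀ μ.1) 1 (by simp [hg₀])).2 μ.2⟩
  refine ⟨Equiv.ofBijective f ⟨fun μ ν h => ?_, fun C => ?_⟩⟩
  · obtain ⟨c, hc⟩ := isConj_iff.1 (ConjClasses.mk_eq_mk_iff_isConj.1 (congrArg Subtype.val h))
    rw [mul_inv_eq_iff_eq_mul] at hc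
    have hc' := congrArg Units.val hc
    rw [Units.val_mul, Units.val_mul, hg₀, hg₀, mul_add, add_mul, mul_one, one_mul, add_right_inj] at hc'
    exact (Subtype.ext (std_injective ν.1 μ.1 c hc'.symm)).symm
  · obtain ⟨C, g, rfl, hg⟩ := C
    obtain ⟨μ, P, hP⟩ := exists_std _ (hS g hg)
    refine ⟨⟨μ, (hST μ g P hP).1 hg⟩, Subtype.ext (ConjClasses.mk_eq_mk_iff_isConj.2 (isConj_iff.2 ⟨P, ?_⟩))⟩
    rw [mul_inv_eq_iff_eq_mul]
    apply Units.ext
    rw [Units.val_mul, Units.val_mul, hg₀, mul_add, mul_one, ← hP, sub_mul, one_mul, add_sub_cancel]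

end CfsgLib.Unipotent.NilpotentClasses
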