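import Mathlib
import Cfsg.Agent.Lib.Unipotent.Basic

/-! The number of nilpotent matrices over a finite field (Fine-Herstein). -/

set_option autoImplicit false

namespace CfsgLib.Unipotent.NilpotentCount

open Matrix

variable {F : Type*} [Field F]

/-- The first basis vectors form a chain. -/
def Chain (n j : ℕ) (N : Matrix (Fin n) (Fin n) F) : Prop :=
  ∀ i i' : Fin n, (i' : ℕ) = i + 1 → (i' : ℕ) < j → N *ᵥ Pi.single i 1 = Pi.single i' 1

theorem charpoly_eq_of_nilpotent {ι : Type*} [Fintype ι] [DecidableEq ι] {N : Matrix ι ι F} (h : IsNilpotent N) :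
    N.charpoly = Polynomial.X ^ Fintype.card ι :=
  sub_eq_zero.mp (Matrix.isNilpotent_charpoly_sub_pow_of_isNilpotent h).eq_zero

theorem nilpotent_of_charpoly {ι : Type*} [Fintype ι] [DecidableEq ι] {N : Matrix ι ι F}
    (h : N.charpoly = Polynomial.X ^ Fintype.card ι) : IsNilpotent N :=
  ⟨Fintype.card ι, by simpa [h] using Matrix.aeval_self_charpoly N⟩

/-- The nilpotent Jordan shift. -/
def shift (F : Type*) [Field F] (j : ℕ) : Matrix (Fin j) (Fin j) F :=
  Matrix.of fun r c => if (r : ℕ) = c + 1 then 1 else 0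

theorem shift_nilpotent (j : ℕ) : IsNilpotent (shift F j) := by
  have h : ∀ t : ℕ, ∀ r c : Fin j, (r : ℕ) < c + t → ((shift F j) ^ t) r c = 0 := by
    intro t
    induction t with
    | zero => intro r c hrc; simp [Matrix.one_apply, show r ≠ c from fun h => by subst h; omega]
    | succ t ih =>
      intro r c hrc
      rw [pow_succ, Matrix.mul_apply]
      refine Finset.sum_eq_zero fun s _ => ?_
      by_cases hs : (s : ℕ) = c + 1
      · rw [ih r s (by omega), zero_mul]
      · simp [shift, hs]
  exact ⟨j, Matrix.ext fun r c => h j r c (by omega)⟩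

theorem card_low [Fintype F] (j m : ℕ) (hj : 1 ≤ j) :
    Nat.card {N : Matrix (Fin (j + m)) (Fin (j + m)) F // (IsNilpotent N ∧ Chain (j + m) j N) ∧
      ∀ r : Fin (j + m), j ≤ (r : ℕ) → (N *ᵥ Pi.single ⟨j - 1, by omega⟩ 1) r = 0}
      = Fintype.card F ^ (j * m) * Nat.card {D : Matrix (Fin m) (Fin m) F // IsNilpotent D} := by
  classical
  let σ := (finSumFinEquiv : Fin j ⊕ Fin m ≃ Fin (j + m))
  let R : Matrix (Fin j ⊕ Fin m) (Fin j ⊕ Fin m) F ≃ Matrix (Fin (j + m)) (Fin (j + m)) F := Matrix.reindex σ σ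
  have hR : ∀ (M : Matrix (Fin j ⊕ Fin m) (Fin j ⊕ Fin m) F) a b, R M (σ a) (σ b) = M a b := by
    intro M a b
    simp [R]
  have hcol : ∀ (N : Matrix (Fin (j + m)) (Fin (j + m)) F) (i r : Fin (j + m)),
      (N *ᵥ Pi.single i 1) r = N r i := fun N i r => by rw [Matrix.mulVec_single_one]; rfl
  have hnil : ∀ M, IsNilpotent (R M) ↔ IsNilpotent M := by
    intro M
    constructor <;> intro h
    · apply nilpotent_of_charpoly
      have := charpoly_eq_of_nilpotent h
      rwa [Matrix.charpoly_reindex, Fintype.card_congr σ.symm] at this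
    · apply nilpotent_of_charpoly
      rw [Matrix.charpoly_reindex, charpoly_eq_of_nilpotent h, Fintype.card_congr σ]
  let f : Matrix (Fin j) (Fin m) F × {D : Matrix (Fin m) (Fin m) F // IsNilpotent D} →
      {N : Matrix (Fin (j + m)) (Fin (j + m)) F // (IsNilpotent N ∧ Chain (j + m) j N) ∧
      ∀ r : Fin (j + m), j ≤ (r : ℕ) → (N *ᵥ Pi.single ⟨j - 1, by omega⟩ 1) r = 0} := fun BD =>
    ⟨R (Matrix.fromBlocks (shift F j) BD.1 0 BD.2.1), by
      refine ⟨⟨(hnil _).2 (nilpotent_of_charpoly ?_), ?_⟩, ?_⟩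
      · rw [Matrix.charpoly_fromBlocks_zero₂₁, charpoly_eq_of_nilpotent (shift_nilpotent j),
          charpoly_eq_of_nilpotent BD.2.2, ← pow_add, Fintype.card_sum]
      · intro i i' h1 h2
        funext r
        rw [hcol]
        obtain ⟨r, rfl⟩ := σ.surjective r
        obtain ⟨c, rfl⟩ : ∃ c : Fin j, σ (Sum.inl c) = i := ⟨⟨i, by omega⟩, Fin.ext (by simp [σ])⟩
        obtain ⟨c', rfl⟩ : ∃ c : Fin j, σ (Sum.inl c) = i' := ⟨⟨i', h2⟩, Fin.ext (by simp [σ])⟩
        simp [σ] at h1
        rw [hR, Pi.single_apply]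
        simp only [σ.apply_eq_iff_eq]
        rcases r with r | r
        · simp only [Matrix.fromBlocks_apply₁₁, shift, Matrix.of_apply, Sum.inl.injEq, Fin.ext_iff, h1]
        · simp
      · intro r hr
        rw [hcol]
        obtain ⟨r, rfl⟩ := σ.surjective r
        rw [show (⟨j - 1, by omega⟩ : Fin (j + m)) = σ (Sum.inl ⟨j - 1, by omega⟩) from Fin.ext (by simp [σ]), hR]
        rcases r with r | r
        · simp [σ] at hr; omega
        · simp⟩
  have hbij : Function.Bijective f := by
    constructor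
    · rintro ⟨B, D⟩ ⟨B', D'⟩ h
      have h' := R.injective (congrArg Subtype.val h)
      rw [Matrix.fromBlocks_inj] at h'
      exact Prod.ext h'.2.1 (Subtype.ext h'.2.2.2)
    · rintro ⟨N, ⟨hN, hC⟩, hlow⟩
      obtain ⟨M, rfl⟩ := R.surjective N
      have hM := (hnil M).1 hN
      have hC' : ∀ (c : Fin j) (hc : (c : ℕ) + 1 < j) a, M a (Sum.inl c) = if a = Sum.inl (⟨c + 1, hc⟩ : Fin j) then 1 else 0 := by
        intro c hc a
        have := congrFun (hC (σ (Sum.inl c)) (σ (Sum.inl ⟨c + 1, hc⟩)) (by simp [σ]) (by simp [σ]; omega)) (σ a)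
        rw [hcol, hR, Pi.single_apply] at this
        simp only [σ.apply_eq_iff_eq] at this
        exact this
      have h21 : M.toBlocks₂₁ = 0 := by
        ext r c
        show M (Sum.inr r) (Sum.inl c) = 0
        by_cases hc : (c : ℕ) + 1 < j
        · rw [hC' c hc, if_neg (by simp)]
        · have hcj : c = ⟨j - 1, by omega⟩ := Fin.ext (by have := c.isLt; simp only; omega)
          have := hlow (σ (Sum.inr r)) (by simp [σ])
          rw [hcol, show (⟨j - 1, by omega⟩ : Fin (j + m)) = σ (Sum.inl ⟨j - 1, by omega⟩) from Fin.ext (by simp [σ]), hR] at this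
          rw [hcj, this]
      have hMeq := (Matrix.fromBlocks_toBlocks M).symm
      rw [h21] at hMeq
      have hch := charpoly_eq_of_nilpotent hM
      rw [hMeq, Matrix.charpoly_fromBlocks_zero₂₁] at hch
      have hA : IsNilpotent M.toBlocks₁₁ := by
        obtain ⟨t, ht⟩ := hM
        refine ⟨t, ?_⟩
        have key : ∀ t, ((Matrix.fromBlocks M.toBlocks₁₁ M.toBlocks₁₂ 0 M.toBlocks₂₂) ^ t).toBlocks₁₁ = M.toBlocks₁₁ ^ t ∧
            ((Matrix.fromBlocks M.toBlocks₁₁ M.toBlocks₁₂ 0 M.toBlocks₂₂) ^ t).toBlocks₂₁ = 0 := by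
          intro t
          induction t with
          | zero =>
            rw [pow_zero, pow_zero, ← Matrix.fromBlocks_one]
            exact ⟨Matrix.toBlocks_fromBlocks₁₁ _ _ _ _, Matrix.toBlocks_fromBlocks₂₁ _ _ _ _⟩
          | succ t ih =>
            rw [pow_succ, ← Matrix.fromBlocks_toBlocks ((Matrix.fromBlocks M.toBlocks₁₁ M.toBlocks₁₂ 0 M.toBlocks₂₂) ^ t),
              Matrix.fromBlocks_multiply, Matrix.toBlocks_fromBlocks₁₁, Matrix.toBlocks_fromBlocks₂₁, ih.1, ih.2, pow_succ]
            simp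
        rw [← (key t).1, ← hMeq, ht]
        ext r c
        rfl
      have hpowA := CfsgLib.Unipotent.pow_card_eq_zero hA
      rw [Fintype.card_fin] at hpowA
      have hshift : M.toBlocks₁₁ = shift F j := by
        have hiter : ∀ t (ht : t < j), (M.toBlocks₁₁ ^ t) *ᵥ Pi.single ⟨0, by omega⟩ 1 = Pi.single ⟨t, ht⟩ 1 := by
          intro t
          induction t with
          | zero => intro ht; rw [pow_zero, Matrix.one_mulVec]
          | succ t ih =>
            intro ht
            rw [pow_succ', ← Matrix.mulVec_mulVec, ih (by omega), Matrix.mulVec_single_one]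
            funext r
            show M (Sum.inl r) (Sum.inl ⟨t, _⟩) = _
            rw [hC' ⟨t, by omega⟩ ht, Pi.single_apply]
            simp
        ext r c
        show M (Sum.inl r) (Sum.inl c) = _
        by_cases hc : (c : ℕ) + 1 < j
        · rw [hC' c hc]
          simp [shift, Fin.ext_iff]
        · have hlast : M.toBlocks₁₁ *ᵥ Pi.single c 1 = 0 := by
            have h0 := hiter c c.isLt
            have hj' : j = (c : ℕ) + 1 := by have := c.isLt; omega
            rw [← h0, Matrix.mulVec_mulVec, ← pow_succ', ← hj', hpowA, Matrix.zero_mulVec]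
          have := congrFun hlast r
          rw [Matrix.mulVec_single_one] at this
          simp only [shift, Matrix.of_apply]
          rw [if_neg (by have := r.isLt; omega)]
          exact this
      have hD : IsNilpotent M.toBlocks₂₂ := by
        apply nilpotent_of_charpoly
        rw [charpoly_eq_of_nilpotent hA, Fintype.card_sum, pow_add] at hch
        exact mul_left_cancel₀ (pow_ne_zero _ Polynomial.X_ne_zero) hch
      refine ⟨(M.toBlocks₁₂, ⟨M.toBlocks₂₂, hD⟩), Subtype.ext ?_⟩
      show R (Matrix.fromBlocks (shift F j) M.toBlocks₁₂ 0 M.toBlocks₂₂) = R M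
      rw [← hshift, ← hMeq]
  rw [← Nat.card_congr (Equiv.ofBijective f hbij), Nat.card_prod,
    show Nat.card (Matrix (Fin j) (Fin m) F) = Fintype.card F ^ (j * m) from by
      rw [Module.natCard_eq_pow_finrank (K := F), Module.finrank_matrix, Nat.card_eq_fintype_card]
      simp]

theorem card_chain [Fintype F] : ∀ n m j : ℕ, 1 ≤ j → j + m = n →
    Nat.card {N : Matrix (Fin n) (Fin n) F // IsNilpotent N ∧ Chain n j N} = Fintype.card F ^ (n * m) := by
  classical
  intro n
  induction n using Nat.strong_induction_on with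
  | _ n ihn =>
    intro m
    induction m with
    | zero =>
      intro j hj hjn
      obtain rfl : j = n := by omega
      have hall : ∀ N : Matrix (Fin j) (Fin j) F, ∀ r : Fin j, j ≤ (r : ℕ) → (N *ᵥ Pi.single (⟨j - 1, by omega⟩ : Fin j) 1) r = 0 :=
        fun N r hr => absurd r.isLt (by omega)
      have h := card_low (F := F) j 0 hj
      rw [mul_zero, pow_zero, one_mul] at h
      rw [mul_zero, pow_zero]
      have hD : Nat.card {D : Matrix (Fin 0) (Fin 0) F // IsNilpotent D} = 1 :=
        Nat.card_eq_one_iff_unique.2 ⟨inferInstance, ⟨⟨0, IsNilpotent.zero⟩⟩⟩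
      rw [hD] at h
      rw [← h]
      exact Nat.card_congr (Equiv.subtypeEquivRight fun N => ⟨fun h => ⟨h, fun r hr => hall N r hr⟩, fun h => h.1⟩)
    | succ m ihm =>
      intro j hj hjn
      subst hjn
      let low : Matrix (Fin (j + (m + 1))) (Fin (j + (m + 1))) F → Prop := fun N =>
        ∀ r : Fin (j + (m + 1)), j ≤ (r : ℕ) → (N *ᵥ Pi.single ⟨j - 1, by omega⟩ 1) r = 0
      let S := {N : Matrix (Fin (j + (m + 1))) (Fin (j + (m + 1))) F // IsNilpotent N ∧ Chain (j + (m + 1)) j N}
      have hsplit : Nat.card S = Nat.card {N : S // low N.1} + Nat.card {N : S // ¬ low N.1} := by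
        rw [← Nat.card_sum]
        exact Nat.card_congr (Equiv.sumCompl fun N : S => low N.1).symm
      have hA : Nat.card {N : S // low N.1} = Fintype.card F ^ (j * (m + 1)) * Fintype.card F ^ ((m + 1) * m) := by
        rw [Nat.card_congr (Equiv.subtypeSubtypeEquivSubtypeInter _ low)]
        rw [card_low (F := F) j (m + 1) hj, ← ihn (m + 1) (by omega) m 1 le_rfl (by omega)]
        congr 1
        exact Nat.card_congr (Equiv.subtypeEquivRight fun D => ⟨fun h => ⟨h, fun i i' h1 h2 => by omega⟩, fun h => h.1⟩)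
      let W := {w : Fin (j + (m + 1)) → F // ∃ r : Fin (j + (m + 1)), j ≤ (r : ℕ) ∧ w r ≠ 0}
      have hW : Nat.card W = Fintype.card F ^ (j + (m + 1)) - Fintype.card F ^ j := by
        have h1 : Nat.card {w : Fin (j + (m + 1)) → F // ¬ ∃ r : Fin (j + (m + 1)), j ≤ (r : ℕ) ∧ w r ≠ 0} = Fintype.card F ^ j := by
          let e : {w : Fin (j + (m + 1)) → F // ¬ ∃ r : Fin (j + (m + 1)), j ≤ (r : ℕ) ∧ w r ≠ 0} ≃ (Fin j → F) :=
            { toFun := fun w c => w.1 ⟨c, by omega⟩
              invFun := fun v => ⟨fun r => if h : (r : ℕ) < j then v ⟨r, h⟩ else 0, by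
                rintro ⟨r, hr, hne⟩
                exact hne (dif_neg (by omega))⟩
              left_inv := fun w => Subtype.ext (funext fun r => by
                by_cases h : (r : ℕ) < j
                · simp [h]
                · simp [h]
                  by_contra hne
                  exact w.2 ⟨r, by omega, fun h' => hne h'.symm⟩)
              right_inv := fun v => funext fun c => by simp }
          rw [Nat.card_congr e, Nat.card_fun]
          simp
        have h2 : Nat.card (Fin (j + (m + 1)) → F) = Nat.card W + Fintype.card F ^ j := by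
          rw [← h1, ← Nat.card_sum]
          exact Nat.card_congr (Equiv.sumCompl fun w : Fin (j + (m + 1)) → F => ∃ r : Fin (j + (m + 1)), j ≤ (r : ℕ) ∧ w r ≠ 0).symm
        rw [Nat.card_fun, Nat.card_eq_fintype_card, Nat.card_fin] at h2
        omega
      have hg : ∀ w : W, ∃ g : GL (Fin (j + (m + 1))) F,
          (∀ i : Fin (j + (m + 1)), (i : ℕ) < j → (g : Matrix (Fin (j + (m + 1))) (Fin (j + (m + 1))) F) *ᵥ Pi.single i 1 = Pi.single i 1) ∧
          (g : Matrix (Fin (j + (m + 1))) (Fin (j + (m + 1))) F) *ᵥ Pi.single ⟨j, by omega⟩ 1 = w.1 := by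
        intro w
        obtain ⟨r, hr, hne⟩ := w.2
        let M := (1 : Matrix (Fin (j + (m + 1))) (Fin (j + (m + 1))) F).updateCol r w.1
        let P := ((Equiv.swap (⟨j, by omega⟩ : Fin (j + (m + 1))) r).permMatrix F)
        have hdet : (M * P).det ≠ 0 := by
          rw [Matrix.det_mul, Matrix.det_permutation]
          refine mul_ne_zero ?_ (by rcases Int.units_eq_one_or (Equiv.Perm.sign (Equiv.swap (⟨j, by omega⟩ : Fin (j + (m + 1))) r)) with h | h <;> rw [h] <;> simp)
          have : M.det = w.1 r := by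
            simp only [M]
            rw [← Matrix.cramer_apply, Matrix.cramer_one]
            rfl
          rwa [this]
        refine ⟨Matrix.GeneralLinearGroup.mkOfDetNeZero (M * P) hdet, ?_⟩
        have hcolP : ∀ i, (M * P) *ᵥ Pi.single i 1 = M *ᵥ Pi.single (Equiv.swap (⟨j, by omega⟩ : Fin (j + (m + 1))) r i) 1 := by
          intro i
          rw [← Matrix.mulVec_mulVec]
          congr 1
          funext a
          rw [Matrix.permMatrix_mulVec]
          simp only [Function.comp_apply, Pi.single_apply]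
          exact if_congr (Equiv.swap_apply_eq_iff) rfl rfl
        constructor
        · intro i hi
          show (M * P) *ᵥ _ = _
          rw [hcolP, Equiv.swap_apply_of_ne_of_ne (fun h => by subst h; simp at hi) (fun h => by subst h; omega)]
          funext a
          rw [Matrix.mulVec_single_one]
          show M a i = _
          simp only [M]
          rw [Matrix.updateCol_ne (fun h => by subst h; omega), Matrix.one_apply, Pi.single_apply]
        · show (M * P) *ᵥ _ = _
          rw [hcolP, Equiv.swap_apply_left]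
          funext a
          rw [Matrix.mulVec_single_one]
          show M a r = _
          simp [M]
      choose g hg1 hg2 using hg
      let T := {N : Matrix (Fin (j + (m + 1))) (Fin (j + (m + 1))) F // IsNilpotent N ∧ Chain (j + (m + 1)) (j + 1) N}
      have hinv : ∀ (w : W) (i : Fin (j + (m + 1))), (i : ℕ) < j →
          (↑(g w)⁻¹ : Matrix (Fin (j + (m + 1))) (Fin (j + (m + 1))) F) *ᵥ Pi.single i 1 = Pi.single i 1 := by
        intro w i hi
        conv_lhs => rw [← hg1 w i hi]
        rw [Matrix.mulVec_mulVec, Units.inv_mul, Matrix.one_mulVec]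
      have hconj : ∀ (u : GL (Fin (j + (m + 1))) F) (N : Matrix (Fin (j + (m + 1))) (Fin (j + (m + 1))) F),
          IsNilpotent N → IsNilpotent ((u : Matrix (Fin (j + (m + 1))) (Fin (j + (m + 1))) F) * N * (↑u⁻¹ : Matrix (Fin (j + (m + 1))) (Fin (j + (m + 1))) F)) := by
        intro u N hN
        apply nilpotent_of_charpoly
        rw [Matrix.coe_units_inv, Matrix.charpoly_units_conj, charpoly_eq_of_nilpotent hN]
      let f : (Σ _ : W, T) → {N : S // ¬ low N.1} := fun x =>
        ⟨⟨(g x.1 : Matrix (Fin (j + (m + 1))) (Fin (j + (m + 1))) F) * x.2.1 * (↑(g x.1)⁻¹ : Matrix (Fin (j + (m + 1))) (Fin (j + (m + 1))) F), hconj _ _ x.2.2.1, by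
          intro i i' h1 h2
          rw [← Matrix.mulVec_mulVec, hinv x.1 i (by omega), ← Matrix.mulVec_mulVec, x.2.2.2 i i' h1 (by omega), hg1 x.1 i' h2]⟩, by
          intro h
          obtain ⟨r, hr, hne⟩ := x.1.2
          apply hne
          have := h r hr
          rw [← Matrix.mulVec_mulVec, hinv x.1 _ (by simp; omega), ← Matrix.mulVec_mulVec,
            x.2.2.2 ⟨j - 1, by omega⟩ ⟨j, by omega⟩ (by simp; omega) (by simp), hg2] at this
          exact this⟩
      have hfcol : ∀ x, (f x).1.1 *ᵥ Pi.single ⟨j - 1, by omega⟩ 1 = x.1.1 := by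
        intro x
        show ((g x.1 : Matrix (Fin (j + (m + 1))) (Fin (j + (m + 1))) F) * x.2.1 * (↑(g x.1)⁻¹ : Matrix (Fin (j + (m + 1))) (Fin (j + (m + 1))) F)) *ᵥ _ = _
        rw [← Matrix.mulVec_mulVec, hinv x.1 _ (by simp; omega), ← Matrix.mulVec_mulVec,
          x.2.2.2 ⟨j - 1, by omega⟩ ⟨j, by omega⟩ (by simp; omega) (by simp), hg2]
      have hbij : Function.Bijective f := by
        constructor
        · rintro ⟨w, N⟩ ⟨w', N'⟩ h
          obtain rfl : w = w' := Subtype.ext (by rw [← hfcol ⟨w, N⟩, h, hfcol ⟨w', N'⟩])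
          have h' : (g w : Matrix (Fin (j + (m + 1))) (Fin (j + (m + 1))) F) * N.1 * (↑(g w)⁻¹ : Matrix (Fin (j + (m + 1))) (Fin (j + (m + 1))) F) = (g w : Matrix (Fin (j + (m + 1))) (Fin (j + (m + 1))) F) * N'.1 * (↑(g w)⁻¹ : Matrix (Fin (j + (m + 1))) (Fin (j + (m + 1))) F) :=
            congrArg (fun z : {N : S // ¬ low N.1} => z.1.1) h
          rw [Units.mul_left_inj, Units.mul_right_inj] at h'
          rw [show N = N' from Subtype.ext h']
        · rintro ⟨⟨N, hN, hC⟩, hlow⟩
          simp only [low, not_forall] at hlow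
          obtain ⟨r, hr, hne⟩ := hlow
          let w : W := ⟨N *ᵥ Pi.single ⟨j - 1, by omega⟩ 1, r, hr, hne⟩
          refine ⟨⟨w, (↑(g w)⁻¹ : Matrix (Fin (j + (m + 1))) (Fin (j + (m + 1))) F) * N * (g w : Matrix (Fin (j + (m + 1))) (Fin (j + (m + 1))) F), ?_, ?_⟩, ?_⟩
          · simpa using hconj (g w)⁻¹ N hN
          · have pj1 : j - 1 < j + (m + 1) := by omega
            have pj : j < j + (m + 1) := by omega
            intro i i' h1 h2
            rw [← Matrix.mulVec_mulVec, hg1 w i (by omega), ← Matrix.mulVec_mulVec]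
            by_cases hi' : (i' : ℕ) < j
            · rw [hC i i' h1 hi', hinv w i' hi']
            · have e1 : i = ⟨j - 1, pj1⟩ := Fin.ext (by simp only; omega)
              have e2 : i' = ⟨j, pj⟩ := Fin.ext (by simp only; omega)
              rw [e1, e2]
              show (↑(g w)⁻¹ : Matrix (Fin (j + (m + 1))) (Fin (j + (m + 1))) F) *ᵥ w.1 = _
              conv_lhs => rw [← hg2 w]
              rw [Matrix.mulVec_mulVec, Units.inv_mul, Matrix.one_mulVec]
          · refine Subtype.ext (Subtype.ext ?_)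
            show (g w : Matrix (Fin (j + (m + 1))) (Fin (j + (m + 1))) F) * ((↑(g w)⁻¹ : Matrix (Fin (j + (m + 1))) (Fin (j + (m + 1))) F) * N * (g w : Matrix (Fin (j + (m + 1))) (Fin (j + (m + 1))) F)) * (↑(g w)⁻¹ : Matrix (Fin (j + (m + 1))) (Fin (j + (m + 1))) F) = N
            simp [mul_assoc]
      have hB : Nat.card {N : S // ¬ low N.1} = (Fintype.card F ^ (j + (m + 1)) - Fintype.card F ^ j) * Fintype.card F ^ ((j + (m + 1)) * m) := by
        rw [← Nat.card_congr (Equiv.ofBijective f hbij), Nat.card_congr (Equiv.sigmaEquivProd _ _), Nat.card_prod, hW]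
        congr 1
        exact ihm (j + 1) (by omega) (by omega)
      rw [hsplit, hA, hB]
      set q := Fintype.card F
      have hle : q ^ j ≤ q ^ (j + (m + 1)) := Nat.pow_le_pow_right Fintype.card_pos (by omega)
      have e : q ^ (j * (m + 1)) * q ^ ((m + 1) * m) = q ^ j * q ^ ((j + (m + 1)) * m) := by
        rw [← pow_add, ← pow_add]; ring_nf
      rw [e, Nat.sub_mul, Nat.add_sub_cancel' (Nat.mul_le_mul_right _ hle), ← pow_add]
      ring_nf

theorem card_nilpotent [Fintype F] (n : ℕ) :
    Nat.card {N : Matrix (Fin n) (Fin n) F // IsNilpotent N} = Fintype.card F ^ (n * (n - 1)) := by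
  rcases Nat.eq_zero_or_pos n with rfl | hn
  · simpa using Nat.card_eq_one_iff_unique.2
      ⟨(inferInstance : Subsingleton {N : Matrix (Fin 0) (Fin 0) F // IsNilpotent N}), ⟨⟨0, IsNilpotent.zero⟩⟩⟩
  rw [← card_chain (F := F) n (n - 1) 1 le_rfl (by omega)]
  exact Nat.card_congr (Equiv.subtypeEquivRight fun N => ⟨fun h => ⟨h, fun i i' h1 h2 => by omega⟩, fun h => h.1⟩)

end CfsgLib.Unipotent.NilpotentCount
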