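import Mathlib
import Cfsg.Agent.Lib.Unipotent.NilpotentCount

/-! Normal form of a regular nilpotent matrix and the determinants of its centraliser. -/

set_option autoImplicit false

namespace CfsgLib.Unipotent.RegularNormalForm

open Matrix
open CfsgLib.Unipotent.NilpotentCount (shift shift_nilpotent)

variable {F : Type*} [Field F]

theorem exists_conj {n : ℕ} (N : Matrix (Fin n) (Fin n) F) (hnil : N ^ n = 0) (hreg : N.rank = n - 1) :
    ∃ P : GL (Fin n) F, N * (P : Matrix (Fin n) (Fin n) F) = (P : Matrix (Fin n) (Fin n) F) * shift F n := by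
  classical
  rcases Nat.eq_zero_or_pos n with rfl | hn
  · exact ⟨1, Subsingleton.elim _ _⟩
  obtain ⟨m, rfl⟩ : ∃ m, n = m + 1 := ⟨n - 1, by omega⟩
  set L : (Fin (m + 1) → F) →ₗ[F] (Fin (m + 1) → F) := Matrix.mulVecLin N with hL
  have hpow : ∀ k : ℕ, Matrix.mulVecLin (N ^ k) = L ^ k := by
    intro k
    induction k with
    | zero => simp [Module.End.one_eq_id, Matrix.mulVecLin_one]
    | succ k ih => rw [pow_succ, pow_succ, Matrix.mulVecLin_mul, ih, hL, Module.End.mul_eq_comp]
  have hker1 : Module.finrank F (LinearMap.ker L) ≤ 1 := by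
    have h := LinearMap.finrank_range_add_finrank_ker L
    rw [Module.finrank_fin_fun] at h
    have : Module.finrank F (LinearMap.range L) = m := hreg.trans (Nat.add_sub_cancel m 1)
    omega
  have hle : ∀ k : ℕ, Module.finrank F (LinearMap.ker (L ^ k)) ≤ k := by
    intro k
    induction k with
    | zero => simp [Module.End.one_eq_id]
    | succ k ih =>
      have hm : ∀ v ∈ LinearMap.ker (L ^ (k + 1)), L v ∈ LinearMap.ker (L ^ k) := by
        intro v hv
        rw [LinearMap.mem_ker, pow_succ, Module.End.mul_apply] at hv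
        exact hv
      let g : LinearMap.ker (L ^ (k + 1)) →ₗ[F] LinearMap.ker (L ^ k) := L.restrict hm
      have h := LinearMap.finrank_range_add_finrank_ker g
      have h1 : Module.finrank F (LinearMap.range g) ≤ k := (Submodule.finrank_le _).trans ih
      have h2 : Module.finrank F (LinearMap.ker g) ≤ 1 := by
        refine le_trans ?_ hker1
        let i : LinearMap.ker g →ₗ[F] LinearMap.ker L :=
          LinearMap.codRestrict _ ((LinearMap.ker (L ^ (k + 1))).subtype.comp (LinearMap.ker g).subtype)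
            (fun x => LinearMap.mem_ker.mpr (congrArg Subtype.val (LinearMap.mem_ker.mp x.2)))
        exact LinearMap.finrank_le_finrank_of_injective (f := i) (fun x y hxy =>
          Subtype.ext (Subtype.ext (congrArg (fun z : LinearMap.ker L => (z : Fin (m + 1) → F)) hxy :)))
      omega
  have hLn : L ^ (m + 1) = 0 := by rw [← hpow, hnil]; ext; simp
  obtain ⟨v, hv⟩ : ∃ v, (L ^ m) v ≠ 0 := by
    by_contra hh
    push Not at hh
    have : LinearMap.ker (L ^ m) = ⊤ := (Submodule.eq_top_iff'.mpr fun x => hh x)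
    have h := hle m
    rw [this, finrank_top, Module.finrank_fin_fun] at h
    omega
  let M : Matrix (Fin (m + 1)) (Fin (m + 1)) F := Matrix.of fun r c => (L ^ (c : ℕ)) v r
  have hcol : ∀ c, M *ᵥ Pi.single c 1 = (L ^ (c : ℕ)) v := fun c => by
    rw [Matrix.mulVec_single_one]; rfl
  have hinj : Function.Injective M.mulVec := by
    rw [← Matrix.coe_mulVecLin, ← LinearMap.ker_eq_bot, LinearMap.ker_eq_bot']
    intro c hc
    by_contra hne
    have hex : ∃ i : ℕ, ∃ h : i < m + 1, c ⟨i, h⟩ ≠ 0 := by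
      obtain ⟨i, hi⟩ := Function.ne_iff.mp hne
      exact ⟨i, i.2, hi⟩
    obtain ⟨hi, hci⟩ := Nat.find_spec hex
    set i₀ := Nat.find hex
    have hsum : M *ᵥ c = ∑ i : Fin (m + 1), c i • (L ^ (i : ℕ)) v := by
      funext r
      simp [M, Matrix.mulVec, dotProduct, mul_comm]
    rw [Matrix.mulVecLin_apply, hsum] at hc
    have h1 := congrArg (L ^ (m - i₀)) hc
    rw [map_sum, map_zero, Finset.sum_eq_single (⟨i₀, hi⟩ : Fin (m + 1))] at h1
    · rw [map_smul, ← Module.End.mul_apply, ← pow_add, show m - i₀ + i₀ = m by omega, smul_eq_zero] at h1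
      exact h1.elim hci hv
    · intro j _ hj
      rw [map_smul, ← Module.End.mul_apply, ← pow_add]
      rcases lt_or_gt_of_ne (fun e => hj (Fin.ext e) : (j : ℕ) ≠ i₀) with hlt | hgt
      · rw [show c j = 0 by by_contra h; exact Nat.find_min hex hlt ⟨j.2, h⟩, zero_smul]
      · rw [show m - i₀ + (j : ℕ) = (m + 1) + ((j : ℕ) - i₀ - 1) by omega, pow_add, hLn, zero_mul]
        simp
    · simp
  have hM : IsUnit M := Matrix.mulVec_injective_iff_isUnit.1 hinj
  refine ⟨hM.unit, ?_⟩
  rw [IsUnit.unit_spec]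
  ext r c
  have h1 : (N * M) r c = (L ^ ((c : ℕ) + 1)) v r := by
    have := congrFun (show (N * M) *ᵥ Pi.single c 1 = (L ^ ((c : ℕ) + 1)) v by
      rw [← Matrix.mulVec_mulVec, hcol, pow_succ', Module.End.mul_apply]; rfl) r
    rwa [Matrix.mulVec_single_one] at this
  rw [h1, Matrix.mul_apply]
  simp only [shift, Matrix.of_apply, mul_ite, mul_one, mul_zero]
  by_cases hc : (c : ℕ) + 1 < m + 1
  · rw [Finset.sum_eq_single (⟨(c : ℕ) + 1, hc⟩ : Fin (m + 1))]
    · simp [M]
    · intro s _ hs
      rw [if_neg (fun h => hs (Fin.ext h))]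
    · simp
  · rw [show (c : ℕ) + 1 = m + 1 by omega, hLn]
    symm
    exact Finset.sum_eq_zero fun s _ => if_neg (by omega)

theorem det_of_commute_shift {n : ℕ} [NeZero n] (Z : Matrix (Fin n) (Fin n) F)
    (h : Z * shift F n = shift F n * Z) : Z.det = Z 0 0 ^ n := by
  classical
  have hr : ∀ (r c : Fin n) (hc : (c : ℕ) + 1 < n),
      Z r ⟨c + 1, hc⟩ = if h : 0 < (r : ℕ) then Z ⟨r - 1, by omega⟩ c else 0 := by
    intro r c hc
    have e := congrFun (congrFun h r) c
    rw [Matrix.mul_apply, Matrix.mul_apply] at e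
    simp only [shift, Matrix.of_apply, mul_ite, mul_one, mul_zero, ite_mul, one_mul, zero_mul] at e
    rw [Finset.sum_eq_single (⟨(c : ℕ) + 1, hc⟩ : Fin n)] at e
    · rw [if_pos rfl] at e
      rw [e]
      by_cases h0 : 0 < (r : ℕ)
      · rw [dif_pos h0, Finset.sum_eq_single (⟨(r : ℕ) - 1, by omega⟩ : Fin n)]
        · rw [if_pos (by simp only; omega)]
        · intro s _ hs
          rw [if_neg (fun h' => hs (Fin.ext (by simp only; omega)))]
        · simp
      · rw [dif_neg h0]
        exact Finset.sum_eq_zero fun s _ => if_neg (by omega)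
    · intro s _ hs
      rw [if_neg (fun h' => hs (Fin.ext h'))]
    · simp
  have hup : ∀ (a : ℕ) (r c : Fin n), (r : ℕ) = a → r < c → Z r c = 0 := by
    intro a
    induction a using Nat.strong_induction_on with
    | _ a ih =>
      intro r c ha hrc
      have hc0 : 0 < (c : ℕ) := lt_of_le_of_lt (Nat.zero_le _) hrc
      have e := hr r ⟨(c : ℕ) - 1, by omega⟩ (by simp only; omega)
      rw [show (⟨((c : ℕ) - 1) + 1, by omega⟩ : Fin n) = c from Fin.ext (by simp only; omega)] at e
      rw [e]
      by_cases h0 : 0 < (r : ℕ)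
      · rw [dif_pos h0]
        exact ih ((r : ℕ) - 1) (by omega) _ _ rfl (by rw [Fin.lt_def]; simp only; rw [Fin.lt_def] at hrc; omega)
      · rw [dif_neg h0]
  have hdiag : ∀ (a : ℕ) (ha : a < n), Z ⟨a, ha⟩ ⟨a, ha⟩ = Z 0 0 := by
    intro a
    induction a with
    | zero => intro ha; rfl
    | succ a ih =>
      intro ha
      rw [hr ⟨a + 1, ha⟩ ⟨a, by omega⟩ ha, dif_pos (Nat.succ_pos _)]
      exact ih (by omega)
  rw [Matrix.det_of_isLowerTriangular Z (fun r c hrc => hup r r c rfl hrc)]
  simp [hdiag _ _, show ∀ i : Fin n, Z i i = Z 0 0 from fun i => hdiag i i.2]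

end CfsgLib.Unipotent.RegularNormalForm
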